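import Cfsg.Agent.PLocal.Replacement
import Cfsg.Agent.Coprime.Basic
import Cfsg.Agent.Coprime.AxB
import Cfsg.Agent.Solv.Cores
import Cfsg.Prelude.Def_Local

/-! Offenders acting faithfully on a `p'`-group that is faithful on `V`. -/

set_option autoImplicit false
set_option linter.style.haveILetI false

namespace Cfsg.Agent.FFPair

open scoped commutatorElement
open Replacement

variable {G : Type*} [Group G] [Finite G] {p : ℕ} [hp : Fact p.Prime]

omit hp in
theorem card_lt_of_ne {B A : Subgroup G} (h : B ≤ A) (hne : B ≠ A) : Nat.card ↥B < Nat.card ↥A :=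
  lt_of_le_of_ne (Subgroup.card_le_of_le h) fun he => hne (Subgroup.eq_of_le_of_card_ge h he.ge)

/-- The configuration. -/
structure Setup (p : ℕ) (V W A : Subgroup G) : Prop where
  velem : IsElementaryAbelian p V
  aelem : IsElementaryAbelian p A
  wprime : ¬ p ∣ Nat.card ↥W
  aw : A ≤ Subgroup.normalizer (W : Set G)
  av : A ≤ Subgroup.normalizer (V : Set G)
  wv : W ≤ Subgroup.normalizer (V : Set G)
  wfaith : W ⊓ Subgroup.centralizer (V : Set G) = ⊥
  afaith : A ⊓ Subgroup.centralizer (W : Set G) = ⊥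

omit [Finite G] in
theorem Setup.mono {V W A : Subgroup G} (h : Setup p V W A) {B : Subgroup G} (hB : B ≤ A) : Setup p V W B where
  velem := h.velem
  aelem := ⟨haveI := h.aelem.1
    ⟨⟨fun a b => Subtype.ext (setLike_mul_comm (hB a.2) (hB b.2))⟩⟩, fun a ha => h.aelem.2 a (hB ha)⟩
  wprime := h.wprime
  aw := hB.trans h.aw
  av := hB.trans h.av
  wv := h.wv
  wfaith := h.wfaith
  afaith := le_bot_iff.mp (h.afaith ▸ inf_le_inf_right _ hB)

/-- A hyperplane whose centralizer in `W` is moved by `A` has strictly larger fixed points on `V`. -/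
theorem Setup.fixed_lt {V W A B : Subgroup G} (h : Setup p V W A) (hBA : B ≤ A)
    (hmove : ¬ W ⊓ Subgroup.centralizer (B : Set G) ≤ Subgroup.centralizer (A : Set G)) :
    V ⊓ Subgroup.centralizer (A : Set G) < V ⊓ Subgroup.centralizer (B : Set G) := by
  haveI := h.aelem.1
  haveI := h.velem.1
  refine lt_of_le_of_ne (inf_le_inf_left V (Subgroup.centralizer_le hBA)) fun heq => hmove ?_
  set CV := V ⊓ Subgroup.centralizer (B : Set G) with hCV
  set CW := W ⊓ Subgroup.centralizer (B : Set G) with hCW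
  have hVB : IsPGroup p ↥(B ⊔ V) :=
    PSolv.isPGroup_sup (fun a => ⟨1, Subtype.ext (by simpa using h.aelem.2 a (hBA a.2))⟩)
      (fun v => ⟨1, Subtype.ext (by simpa using h.velem.2 v v.2)⟩) (hBA.trans h.av)
  intro w hw
  rw [Subgroup.mem_centralizer_iff]
  intro a ha
  obtain ⟨c, hc⟩ : ∃ c, c = ⁅w, a⁆ := ⟨_, rfl⟩
  have hcW : c ∈ W := by
    rw [hc, commutatorElement_def, show w * a * w⁻¹ * a⁻¹ = w * (a * w⁻¹ * a⁻¹) by group]
    exact W.mul_mem hw.1 ((Subgroup.mem_normalizer_iff.mp (h.aw ha) _).mp (W.inv_mem hw.1))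
  have hwB : ∀ b ∈ B, Commute b w := fun b hb => Subgroup.mem_centralizer_iff.mp hw.2 b hb
  have hab : ∀ b ∈ B, Commute b a := fun b hb => setLike_mul_comm (hBA hb) ha
  have hcB : ∀ b ∈ B, Commute b c := fun b hb => by
    rw [hc, commutatorElement_def]
    exact (((hwB b hb).mul_right (hab b hb)).mul_right (hwB b hb).inv_right).mul_right (hab b hb).inv_right
  have hfixA : ∀ v ∈ CV, Commute a v := fun v hv =>
    Subgroup.mem_centralizer_iff.mp ((heq.symm ▸ hv : v ∈ V ⊓ Subgroup.centralizer (A : Set G))).2 a ha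
  have hcV : ∀ v ∈ CV, Commute c v := by
    intro v hv
    have hw' : w⁻¹ * v * w ∈ CV := by
      refine ⟨by simpa using (Subgroup.mem_normalizer_iff.mp (h.wv (W.inv_mem hw.1)) v).mp hv.1, ?_⟩
      exact Subgroup.mem_centralizer_iff.mpr fun b hb =>
        ((((hwB b hb).inv_right).mul_right (Subgroup.mem_centralizer_iff.mp hv.2 b hb : Commute b v)).mul_right (hwB b hb)).eq
    have h1 := hfixA _ hw'
    have h2 := hfixA v hv
    show c * v = v * c
    rw [hc, commutatorElement_def]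
    calc w * a * w⁻¹ * a⁻¹ * v = w * a * w⁻¹ * (a⁻¹ * v) := by group
      _ = w * a * w⁻¹ * (v * a⁻¹) := by rw [h2.inv_left.eq]
      _ = w * (a * (w⁻¹ * v * w)) * w⁻¹ * a⁻¹ := by group
      _ = w * ((w⁻¹ * v * w) * a) * w⁻¹ * a⁻¹ := by rw [h1.eq]
      _ = v * (w * a * w⁻¹ * a⁻¹) := by group
  have hVc : V ≤ Subgroup.centralizer {c} := by
    refine le_sup_right.trans (CoprimeAct.le_centralizer_of_axb hVB (PSolv.coprime_orderOf_of_mem h.wprime hcW) ?_
      (le_sup_left : B ≤ B ⊔ V) ?_ ?_)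
    · rw [Subgroup.mem_normalizer_iff_map_conj_eq, Subgroup.map_sup]
      congr 1
      · exact Subgroup.mem_normalizer_iff_map_conj_eq.mp (Subgroup.centralizer_le_normalizer _
          (Subgroup.mem_centralizer_iff.mpr fun b hb => (hcB b hb).eq))
      · exact Subgroup.mem_normalizer_iff_map_conj_eq.mp (h.wv hcW)
    · exact fun b hb => Subgroup.mem_centralizer_singleton_iff.mpr (hcB b hb).eq
    · intro q hqq
      obtain ⟨hq, hqB⟩ : q ∈ B ⊔ V ∧ q ∈ Subgroup.centralizer (B : Set G) := hqq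
      rw [← SetLike.mem_coe, Subgroup.coe_mul_of_left_le_normalizer_right B V (hBA.trans h.av)] at hq
      obtain ⟨b, hb, v, hv, rfl⟩ := hq
      have hv' : v ∈ CV := ⟨hv, Subgroup.mem_centralizer_iff.mpr fun b' hb' => by
        have h1 : Commute b' (b * v) := Subgroup.mem_centralizer_iff.mp hqB b' hb'
        have h2 : Commute b' b := setLike_mul_comm (hBA hb') (hBA hb)
        have := h2.inv_right.mul_right h1
        rwa [inv_mul_cancel_left] at this⟩
      exact Subgroup.mem_centralizer_singleton_iff.mpr ((hcB b hb).mul_left (hcV v hv').symm).eq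
  have hc1 : c = 1 := by
    have : c ∈ W ⊓ Subgroup.centralizer (V : Set G) :=
      ⟨hcW, Subgroup.mem_centralizer_iff.mpr fun v hv => Subgroup.mem_centralizer_singleton_iff.mp (hVc hv)⟩
    rwa [h.wfaith, Subgroup.mem_bot] at this
  rw [hc, commutatorElement_eq_one_iff_mul_comm] at hc1
  exact hc1.symm

/-- The moved hyperplanes have trivial intersection. -/
theorem Setup.exists_moved {V W A : Subgroup G} (h : Setup p V W A) {x : G} (hx : x ∈ A) (hx1 : x ≠ 1) :
    ∃ B : Subgroup G, B ≤ A ∧ B.relIndex A = p ∧ x ∉ B ∧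
      ¬ W ⊓ Subgroup.centralizer (B : Set G) ≤ Subgroup.centralizer (A : Set G) := by
  by_contra hno
  apply hx1
  have hgen := CoprimeAct.le_iSup_inf_centralizer h.aelem.1 h.aelem.2 h.wprime h.aw
  have hle : W ≤ Subgroup.centralizer {x} := by
    rw [hgen]
    refine iSup_le fun B => ?_
    obtain ⟨B, hBA, hBi⟩ := B
    by_cases hmove : W ⊓ Subgroup.centralizer (B : Set G) ≤ Subgroup.centralizer (A : Set G)
    · exact fun w hw => Subgroup.mem_centralizer_singleton_iff.mpr (Subgroup.mem_centralizer_iff.mp (hmove hw) x hx).symm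
    · have hxB : x ∈ B := by
        by_contra hxB
        refine hno ⟨B, hBA, le_antisymm hBi ?_, hxB, hmove⟩
        obtain ⟨k, hk⟩ := (show IsPGroup p ↥A from fun a => ⟨1, Subtype.ext (by simpa using h.aelem.2 a a.2)⟩).exists_card_eq
        have hd : B.relIndex A ∣ p ^ k := hk ▸ Subgroup.relIndex_dvd_card B A
        obtain ⟨i, -, hi⟩ := (Nat.dvd_prime_pow hp.out).mp hd
        cases i with
        | zero => exact absurd (Subgroup.relIndex_eq_one.mp (by rw [hi, pow_zero]) hx) hxB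
        | succ i => rw [hi]; exact Nat.le_self_pow (Nat.succ_ne_zero i) p
      exact fun w hw => Subgroup.mem_centralizer_singleton_iff.mpr (Subgroup.mem_centralizer_iff.mp hw.2 x hxB).symm
  have : x ∈ A ⊓ Subgroup.centralizer (W : Set G) :=
    ⟨hx, Subgroup.mem_centralizer_iff.mpr fun w hw => Subgroup.mem_centralizer_singleton_iff.mp (hle hw)⟩
  rwa [h.afaith, Subgroup.mem_bot] at this

theorem two_mul_le_of_lt {H K : Subgroup G} {V : Subgroup G} (hV : IsElementaryAbelian p V) (hKV : K ≤ V) (hlt : H < K) :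
    p * Nat.card ↥H ≤ Nat.card ↥K := by
  rw [← card_mul_relIndex_eq hlt.le, mul_comm]
  refine Nat.mul_le_mul_left _ ?_
  obtain ⟨k, hk⟩ := (show IsPGroup p ↥K from fun a => ⟨1, Subtype.ext (by simpa using hV.2 a (hKV a.2))⟩).exists_card_eq
  have hd : H.relIndex K ∣ p ^ k := hk ▸ Subgroup.relIndex_dvd_card H K
  obtain ⟨i, -, hi⟩ := (Nat.dvd_prime_pow hp.out).mp hd
  cases i with
  | zero => exact absurd (Subgroup.relIndex_eq_one.mp (by rw [hi, pow_zero])) (not_le_of_gt hlt)
  | succ i => rw [hi]; exact Nat.le_self_pow (Nat.succ_ne_zero i) p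

/-- `|A| |C_V(A)| ≤ |V|`. -/
theorem Setup.meas_le {V W A : Subgroup G} (h : Setup p V W A) : meas V A ≤ Nat.card ↥V := by
  induction hn : Nat.card ↥A using Nat.strong_induction_on generalizing A with
  | _ n ih =>
  by_cases hA : A = ⊥
  · subst hA
    rw [meas, Subgroup.card_bot, one_mul]
    exact Subgroup.card_le_of_le inf_le_left
  obtain ⟨x, hx, hx1⟩ := (Subgroup.nontrivial_iff_exists_ne_one A).mp ((Subgroup.nontrivial_iff_ne_bot A).mpr hA)
  obtain ⟨B, hBA, hBi, hxB, hmove⟩ := h.exists_moved hx hx1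
  have hlt : Nat.card ↥B < n := hn ▸ card_lt_of_ne hBA (fun he => hxB (he ▸ hx))
  have hB := ih _ hlt (h.mono hBA) rfl
  calc meas V A = Nat.card ↥B * (p * Nat.card ↥(V ⊓ Subgroup.centralizer (A : Set G))) := by
        rw [meas, ← card_mul_relIndex_eq hBA, hBi, mul_assoc]
    _ ≤ Nat.card ↥B * Nat.card ↥(V ⊓ Subgroup.centralizer (B : Set G)) :=
        Nat.mul_le_mul_left _ (two_mul_le_of_lt h.velem inf_le_left (h.fixed_lt hBA hmove))
    _ ≤ Nat.card ↥V := hB

/-- A moved hyperplane of a full offender is a full offender. -/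
theorem Setup.hyperplane_full {V W A B : Subgroup G} (h : Setup p V W A) (hA : meas V A = Nat.card ↥V)
    (hBA : B ≤ A) (hBi : B.relIndex A = p)
    (hmove : ¬ W ⊓ Subgroup.centralizer (B : Set G) ≤ Subgroup.centralizer (A : Set G)) :
    meas V B = Nat.card ↥V := by
  refine le_antisymm (h.mono hBA).meas_le ?_
  rw [← hA, meas, ← card_mul_relIndex_eq hBA, hBi, mul_assoc]
  exact Nat.mul_le_mul_left _ (two_mul_le_of_lt h.velem inf_le_left (h.fixed_lt hBA hmove))

/-- A complementary full offender of order `p` to a hyperplane. -/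
theorem Setup.exists_order_p {V W A B : Subgroup G} (h : Setup p V W A) (hA : meas V A = Nat.card ↥V)
    (hAB : ¬ A ≤ B) : ∃ C : Subgroup G, C ≤ A ∧ ¬ C ≤ B ∧ Nat.card ↥C = p ∧ meas V C = Nat.card ↥V := by
  induction hn : Nat.card ↥A using Nat.strong_induction_on generalizing A with
  | _ n ih =>
  obtain ⟨x, hx, hxB⟩ := SetLike.not_le_iff_exists.mp hAB
  by_cases hcase : ∃ B' : Subgroup G, B' ≤ A ∧ B'.relIndex A = p ∧ ¬ B' ≤ B ∧
      ¬ W ⊓ Subgroup.centralizer (B' : Set G) ≤ Subgroup.centralizer (A : Set G)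
  · obtain ⟨B', hB'A, hB'i, hB'B, hmove⟩ := hcase
    have hne : B' ≠ A := by
      intro he; rw [he, Subgroup.relIndex_self] at hB'i; exact hp.out.ne_one hB'i.symm
    obtain ⟨C, hC, h1, h2, h3⟩ := ih _ (hn ▸ card_lt_of_ne hB'A hne) (h.mono hB'A)
      (h.hyperplane_full hA hB'A hB'i hmove) hB'B rfl
    exact ⟨C, hC.trans hB'A, h1, h2, h3⟩
  -- every moved hyperplane lies in `B`, hence is `A ⊓ B`; their intersection is trivial
  simp only [not_exists, not_and, not_not] at hcase
  have htriv : A ⊓ B = ⊥ := by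
    rw [Subgroup.eq_bot_iff_forall]
    intro y hy
    by_contra hy1
    obtain ⟨B', hB'A, hB'i, hyB', hmove⟩ := h.exists_moved hy.1 hy1
    have hB'B : B' ≤ B := by
      by_contra hB'B
      exact hmove (hcase B' hB'A hB'i hB'B)
    have hlt : B' < A ⊓ B := lt_of_le_of_ne (le_inf hB'A hB'B) fun he => hyB' (he ▸ hy)
    have h1 : (A ⊓ B).relIndex A * B'.relIndex (A ⊓ B) = B'.relIndex A := by
      rw [mul_comm]; exact Subgroup.relIndex_mul_relIndex _ _ _ hlt.le inf_le_left
    rw [hB'i] at h1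
    rcases (Nat.dvd_prime hp.out).mp (h1 ▸ dvd_mul_left _ _ : B'.relIndex (A ⊓ B) ∣ p) with h2 | h2
    · exact (not_le_of_gt hlt) (Subgroup.relIndex_eq_one.mp h2)
    · rw [h2] at h1
      have h3 : (A ⊓ B).relIndex A = 1 := by nlinarith [hp.out.pos]
      exact hxB (Subgroup.relIndex_eq_one.mp h3 hx).2
  obtain ⟨B', hB'A, hB'i, hxB', hmove⟩ := h.exists_moved hx (fun h1 => hxB (h1 ▸ B.one_mem))
  have hB'B : B' ≤ B := by
    by_contra hB'B
    exact hmove (hcase B' hB'A hB'i hB'B)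
  refine ⟨A, le_rfl, hAB, ?_, hA⟩
  rw [← card_mul_relIndex_eq hB'A, hB'i, (le_bot_iff.mp (htriv ▸ le_inf hB'A hB'B) : B' = ⊥), Subgroup.card_bot, one_mul]

/-- The setup inside a group satisfying the self-centralizing hypothesis. -/
theorem setup_of {V H A : Subgroup G} (hV : IsElementaryAbelian p V) (hHV : H ≤ Subgroup.normalizer (V : Set G))
    (hf : H ⊓ Subgroup.centralizer (V : Set G) = ⊥)
    (hS1 : Subgroup.centralizer (pPrimeCore p ↥H : Set ↥H) ≤ pPrimeCore p ↥H) (hAH : A ≤ H)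
    (hA : IsBestOffenderOn p V A) : Setup p V ((pPrimeCore p ↥H).map H.subtype) A where
  velem := hV
  aelem := by
    refine ⟨⟨⟨fun a b => Subtype.ext (commutatorElement_eq_one_iff_mul_comm.mp (Subgroup.mem_bot.mp (hf ▸ ?_)))⟩⟩,
      fun a ha => Subgroup.mem_bot.mp (hf ▸ ⟨H.pow_mem (hAH ha) p, hA.2.2 a ha⟩)⟩
    refine ⟨?_, hA.2.1 (Subgroup.commutator_mem_commutator a.2 b.2)⟩
    rw [commutatorElement_def]
    exact H.mul_mem (H.mul_mem (H.mul_mem (hAH a.2) (hAH b.2)) (H.inv_mem (hAH a.2))) (H.inv_mem (hAH b.2))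
  wprime := by rw [Subgroup.card_map_of_injective H.subtype_injective]; exact PSolv.not_dvd_pPrimeCore
  aw := by
    haveI := (Solv.pPrimeCore_mem (G := ↥H) p).1
    have h := Subgroup.le_normalizer_map (H := pPrimeCore p ↥H) H.subtype
    rw [Subgroup.normalizer_eq_top_iff.mpr inferInstance, ← MonoidHom.range_eq_map, Subgroup.range_subtype] at h
    exact hAH.trans h
  av := hAH.trans hHV
  wv := (Subgroup.map_subtype_le _).trans hHV
  wfaith := le_bot_iff.mp (hf ▸ inf_le_inf_right _ (Subgroup.map_subtype_le _))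
  afaith := by
    rw [Subgroup.eq_bot_iff_forall]
    rintro a ⟨ha, hac⟩
    have h1 : (⟨a, hAH ha⟩ : ↥H) ∈ pPrimeCore p ↥H := hS1 (Subgroup.mem_centralizer_iff.mpr fun w hw =>
      Subtype.ext (Subgroup.mem_centralizer_iff.mp hac w ⟨w, hw, rfl⟩))
    have hap : a ^ p = 1 := Subgroup.mem_bot.mp (hf ▸ ⟨H.pow_mem (hAH ha) p, hA.2.2 a ha⟩)
    have h2 := PSolv.coprime_orderOf_of_mem (PSolv.not_dvd_pPrimeCore (G := ↥H) (p := p)) h1
    rw [Subgroup.orderOf_mk] at h2
    exact orderOf_eq_one_iff.mp (Nat.eq_one_of_dvd_coprimes h2 dvd_rfl (orderOf_dvd_of_pow_eq_one hap))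

/-- A best offender in the setup is a full offender. -/
theorem Setup.full {V W A : Subgroup G} (h : Setup p V W A) (hA : IsBestOffenderOn p V A) :
    meas V A = Nat.card ↥V := by
  refine le_antisymm h.meas_le ?_
  have h1 : meas V ⊥ ≤ meas V A := hA.1 ⊥ bot_le
  rwa [meas, Subgroup.card_bot, one_mul, inf_eq_left.mpr (fun v _ => Subgroup.mem_centralizer_iff.mpr fun x hx => by
    rw [Subgroup.mem_bot.mp hx, one_mul, mul_one])] at h1

/-- A full offender in the setup is a best offender. -/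
theorem Setup.best {V W A : Subgroup G} (h : Setup p V W A) (hA : meas V A = Nat.card ↥V) :
    IsBestOffenderOn p V A := by
  haveI := h.aelem.1
  refine ⟨fun B hB => ((h.mono hB).meas_le).trans hA.ge, ?_, fun a ha => by rw [h.aelem.2 a ha]; exact one_mem _⟩
  rw [Subgroup.commutator_le]
  intro a ha b hb
  rw [commutatorElement_eq_one_iff_mul_comm.mpr (setLike_mul_comm ha hb)]
  exact one_mem _

/-- A nontrivial subgroup in the setup acts nontrivially. -/
theorem Setup.moves {V W A : Subgroup G} (h : Setup p V W A) (hA : A ≠ ⊥) : ⁅V, A⁆ ≠ ⊥ := by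
  intro hbot
  refine hA (le_bot_iff.mp (h.afaith ▸ le_inf le_rfl ?_))
  intro a ha
  rw [Subgroup.mem_centralizer_iff]
  intro w hw
  obtain ⟨c, hc⟩ : ∃ c, c = ⁅w, a⁆ := ⟨_, rfl⟩
  have hcW : c ∈ W := by
    rw [hc, commutatorElement_def, show w * a * w⁻¹ * a⁻¹ = w * (a * w⁻¹ * a⁻¹) by group]
    exact W.mul_mem hw ((Subgroup.mem_normalizer_iff.mp (h.aw ha) _).mp (W.inv_mem hw))
  have hav : ∀ v ∈ V, Commute a v := fun v hv =>
    Subgroup.mem_centralizer_iff.mp (Subgroup.commutator_eq_bot_iff_le_centralizer.mp hbot hv) a ha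
  have hc1 : c = 1 := by
    have : c ∈ W ⊓ Subgroup.centralizer (V : Set G) := by
      refine ⟨hcW, Subgroup.mem_centralizer_iff.mpr fun v hv => ?_⟩
      have hv' : w⁻¹ * v * w ∈ V := by simpa using (Subgroup.mem_normalizer_iff.mp (h.wv (W.inv_mem hw)) v).mp hv
      rw [hc, commutatorElement_def]
      symm
      calc w * a * w⁻¹ * a⁻¹ * v = w * a * w⁻¹ * (a⁻¹ * v) := by group
        _ = w * a * w⁻¹ * (v * a⁻¹) := by rw [(hav v hv).inv_left.eq]
        _ = w * (a * (w⁻¹ * v * w)) * w⁻¹ * a⁻¹ := by group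
        _ = w * ((w⁻¹ * v * w) * a) * w⁻¹ * a⁻¹ := by rw [(hav _ hv').eq]
        _ = v * (w * a * w⁻¹ * a⁻¹) := by group
    rwa [h.wfaith, Subgroup.mem_bot] at this
  rwa [hc, commutatorElement_eq_one_iff_mul_comm] at hc1

end Cfsg.Agent.FFPair
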