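import Cfsg.Agent.PLocal.MaxElem
import Cfsg.Agent.Solv.FrattiniFree
import Cfsg.Agent.PSolv.Basic
import Mathlib.Data.Fintype.Powerset

/-! Thompson replacement for an abelian action on an abelian group (Timmesfeld's form). -/

set_option autoImplicit false
set_option linter.style.haveILetI false

namespace Cfsg.Agent.Replacement

open scoped commutatorElement

variable {G : Type*} [Group G] [Finite G]

/-- The measure `|B| |C_V(B)|`. -/
noncomputable def meas (V B : Subgroup G) : ℕ :=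
  Nat.card ↥B * Nat.card ↥(V ⊓ Subgroup.centralizer (B : Set G))

theorem card_mul_relIndex_eq {H K : Subgroup G} (h : H ≤ K) : Nat.card ↥H * H.relIndex K = Nat.card ↥K := by
  have := Subgroup.relIndex_mul_relIndex (⊥ : Subgroup G) H K bot_le h
  rwa [Subgroup.relIndex_bot_left, Subgroup.relIndex_bot_left] at this

theorem card_mul_le (K L M : Subgroup G) (hK : K ≤ M) (hL : L ≤ M) :
    Nat.card ↥K * Nat.card ↥L ≤ Nat.card ↥M * Nat.card ↥(K ⊓ L) := by
  have h1 : Nat.card ↥K = Nat.card ↥(K ⊓ L) * (K ⊓ L).relIndex K :=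
    (card_mul_relIndex_eq inf_le_left).symm
  have h2 : (K ⊓ L).relIndex K = L.relIndex K := Subgroup.inf_relIndex_left K L
  have h3 : Nat.card ↥M = Nat.card ↥L * L.relIndex M := (card_mul_relIndex_eq hL).symm
  haveI : L.IsFiniteRelIndex M := ⟨Subgroup.index_ne_zero_of_finite⟩
  have h4 : L.relIndex K ≤ L.relIndex M := Subgroup.relIndex_le_of_le_right hK Subgroup.relIndex_ne_zero
  rw [h1, h2, h3]
  calc Nat.card ↥(K ⊓ L) * L.relIndex K * Nat.card ↥L
      ≤ Nat.card ↥(K ⊓ L) * L.relIndex M * Nat.card ↥L :=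
        Nat.mul_le_mul_right _ (Nat.mul_le_mul_left _ h4)
    _ = Nat.card ↥L * L.relIndex M * Nat.card ↥(K ⊓ L) := by ring

theorem sup_eq_iff_card {K M : Subgroup G} (h : K ≤ M) (hc : Nat.card ↥M ≤ Nat.card ↥K) : K = M :=
  Subgroup.eq_of_le_of_card_ge h hc

/-- The replacement lemma. -/
theorem replacement {V A : Subgroup G} (hV : IsMulCommutative V) (hAV : A ≤ Subgroup.normalizer (V : Set G))
    (hab : ⁅A, A⁆ ≤ Subgroup.centralizer (V : Set G)) (hmax : ∀ B : Subgroup G, B ≤ A → meas V B ≤ meas V A)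
    (U : Subgroup G) (hU : U ≤ V) :
    meas V (A ⊓ Subgroup.centralizer ((⁅U, A⁆ : Subgroup G) : Set G)) = meas V A ∧
      V ⊓ Subgroup.centralizer ((A ⊓ Subgroup.centralizer ((⁅U, A⁆ : Subgroup G) : Set G) : Subgroup G) : Set G) =
        ⁅U, A⁆ ⊔ (V ⊓ Subgroup.centralizer (A : Set G)) := by
  classical
  set CA := V ⊓ Subgroup.centralizer (A : Set G) with hCA
  let st : Subgroup G → Subgroup G := fun W => A ⊓ Subgroup.centralizer ((⁅W, A⁆ : Subgroup G) : Set G)
  let cv : Subgroup G → Subgroup G := fun B => V ⊓ Subgroup.centralizer (B : Set G)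
  let P : Subgroup G → Prop := fun W => meas V (st W) = meas V A ∧ cv (st W) = ⁅W, A⁆ ⊔ CA
  have hcomm : ∀ W : Subgroup G, W ≤ V → ⁅W, A⁆ ≤ V := fun W hW =>
    (Subgroup.commutator_mono hW le_rfl).trans (Subgroup.le_normalizer_iff_commutator_le_left.mp hAV)
  have hlow : ∀ W : Subgroup G, W ≤ V → ⁅W, A⁆ ⊔ CA ≤ cv (st W) := fun W hW => sup_le
    (le_inf (hcomm W hW) (Subgroup.le_centralizer_iff.mp inf_le_right))
    (inf_le_inf_left V (Subgroup.centralizer_le inf_le_left))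
  have hact : ∀ a ∈ A, ∀ b ∈ A, ∀ v ∈ V, b * (a * v * a⁻¹) * b⁻¹ = a * (b * v * b⁻¹) * a⁻¹ := by
    intro a ha b hb v hv
    have hc := Subgroup.mem_centralizer_iff.mp (hab (Subgroup.commutator_mem_commutator (A.inv_mem ha) (A.inv_mem hb))) v hv
    calc b * (a * v * a⁻¹) * b⁻¹ = b * a * (v * ⁅a⁻¹, b⁻¹⁆) * ⁅a⁻¹, b⁻¹⁆⁻¹ * (b * a)⁻¹ := by group
      _ = b * a * (⁅a⁻¹, b⁻¹⁆ * v) * ⁅a⁻¹, b⁻¹⁆⁻¹ * (b * a)⁻¹ := by rw [hc]
      _ = a * (b * v * b⁻¹) * a⁻¹ := by rw [commutatorElement_def]; group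
  have hsingle : ∀ u ∈ V, P (Subgroup.zpowers u) := by
    intro u hu
    have huV : Subgroup.zpowers u ≤ V := Subgroup.zpowers_le.mpr hu
    set X := ⁅Subgroup.zpowers u, A⁆ with hX
    set B := st (Subgroup.zpowers u) with hB
    set W := X ⊔ CA with hW
    have hWV : W ≤ V := sup_le (hcomm _ huV) inf_le_left
    have hCAW : CA ≤ W := le_sup_right
    -- if `c` moves `u` by an element of `C_V(A)`, it centralizes `X`
    have hkey : ∀ c ∈ A, c * u * c⁻¹ * u⁻¹ ∈ CA → c ∈ B := by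
      intro c hc hz
      refine ⟨hc, Subgroup.mem_centralizer_iff.mpr ?_⟩
      suffices hle : X ≤ Subgroup.centralizer {c} from
        fun x hx => Subgroup.mem_centralizer_singleton_iff.mp (hle hx)
      have hfix : ∀ a ∈ A, ⁅u, a⁆ ∈ Subgroup.centralizer {c} := by
        intro a ha
        obtain ⟨z, hzdef⟩ : ∃ z, z = c * u * c⁻¹ * u⁻¹ := ⟨_, rfl⟩
        rw [← hzdef] at hz
        have hcu : c * u * c⁻¹ = z * u := by rw [hzdef]; group
        have haz : a * z * a⁻¹ = z := by rw [Subgroup.mem_centralizer_iff.mp hz.2 a ha, mul_inv_cancel_right]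
        rw [Subgroup.mem_centralizer_singleton_iff]
        have h1 : c * ⁅u, a⁆ * c⁻¹ = ⁅u, a⁆ := by
          calc c * ⁅u, a⁆ * c⁻¹ = (c * u * c⁻¹) * (c * (a * u * a⁻¹) * c⁻¹)⁻¹ := by rw [commutatorElement_def]; group
            _ = z * u * (a * (z * u) * a⁻¹)⁻¹ := by rw [hact a ha c hc u hu, hcu]
            _ = z * u * ((a * z * a⁻¹) * (a * u * a⁻¹))⁻¹ := by group
            _ = z * u * (z * (a * u * a⁻¹))⁻¹ := by rw [haz]
            _ = z * (u * (a * u * a⁻¹)⁻¹) * z⁻¹ := by group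
            _ = ⁅u, a⁆ := by
              have hm : u * (a * u * a⁻¹)⁻¹ ∈ V := V.mul_mem hu (V.inv_mem ((Subgroup.mem_normalizer_iff.mp (hAV ha) u).mp hu))
              rw [setLike_mul_comm hz.1 hm, mul_inv_cancel_right, commutatorElement_def]; group
        calc ⁅u, a⁆ * c = c * ⁅u, a⁆ * c⁻¹ * c := by rw [h1]
          _ = c * ⁅u, a⁆ := by group
      rw [hX, Subgroup.commutator_le]
      rintro w ⟨i, rfl⟩ a ha
      let φ : ↥V →* G :=
        { toFun := fun v => ⁅(v : G), a⁆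
          map_one' := commutatorElement_one_left a
          map_mul' := fun v w => by
            have hw : ⁅(w : G), a⁆ ∈ V := hcomm V le_rfl (Subgroup.commutator_mem_commutator w.2 ha)
            have hv : ⁅(v : G), a⁆ ∈ V := hcomm V le_rfl (Subgroup.commutator_mem_commutator v.2 ha)
            calc ⁅((v * w : ↥V) : G), a⁆ = (v : G) * ⁅(w : G), a⁆ * (v : G)⁻¹ * ⁅(v : G), a⁆ := by
                  rw [Subgroup.coe_mul, commutatorElement_def, commutatorElement_def, commutatorElement_def]; group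
              _ = ⁅(w : G), a⁆ * ⁅(v : G), a⁆ := by rw [setLike_mul_comm v.2 hw, mul_inv_cancel_right]
              _ = ⁅(v : G), a⁆ * ⁅(w : G), a⁆ := setLike_mul_comm hw hv }
      show φ ⟨u ^ i, V.zpow_mem hu i⟩ ∈ Subgroup.centralizer {c}
      rw [show (⟨u ^ i, V.zpow_mem hu i⟩ : ↥V) = (⟨u, hu⟩ : ↥V) ^ i from Subtype.ext (by simp), map_zpow]
      exact Subgroup.zpow_mem _ (hfix a ha) i
    -- an injection of cosets
    let f : ↥A ⧸ B.subgroupOf A → ↥W ⧸ CA.subgroupOf W := fun q =>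
      QuotientGroup.mk (⟨⁅u, ((q.out : ↥A) : G)⁆,
        Subgroup.mem_sup_left (Subgroup.commutator_mem_commutator (Subgroup.mem_zpowers u) q.out.2)⟩ : ↥W)
    have hf : Function.Injective f := by
      intro q r hqr
      have h0' := QuotientGroup.eq.mp hqr
      have h0 : (⁅u, ((q.out : ↥A) : G)⁆)⁻¹ * ⁅u, ((r.out : ↥A) : G)⁆ ∈ CA := h0'
      rw [← q.out_eq, ← r.out_eq]
      refine QuotientGroup.eq.mpr ?_
      show ((q.out : ↥A) : G)⁻¹ * ((r.out : ↥A) : G) ∈ B
      obtain ⟨a, ha⟩ : ∃ a, a = ((q.out : ↥A) : G) := ⟨_, rfl⟩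
      obtain ⟨b, hb⟩ : ∃ b, b = ((r.out : ↥A) : G) := ⟨_, rfl⟩
      have haA : a ∈ A := ha ▸ q.out.2
      have hbA : b ∈ A := hb ▸ r.out.2
      rw [← ha, ← hb] at h0 ⊢
      refine hkey _ (A.mul_mem (A.inv_mem haA) hbA) ?_
      have e : (⁅u, a⁆)⁻¹ * ⁅u, b⁆ = a * (u * (a⁻¹ * b * u * (a⁻¹ * b)⁻¹)⁻¹) * a⁻¹ * ((a * u * a⁻¹) * (a * u⁻¹ * a⁻¹)) := by
        rw [commutatorElement_def, commutatorElement_def]; group
      rw [e, show (a * u * a⁻¹) * (a * u⁻¹ * a⁻¹) = 1 by group, mul_one] at h0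
      obtain ⟨z, hzdef⟩ : ∃ z, z = u * (a⁻¹ * b * u * (a⁻¹ * b)⁻¹)⁻¹ := ⟨_, rfl⟩
      rw [← hzdef] at h0
      have hz : z ∈ CA := by
        have h2 : a⁻¹ * (a * z * a⁻¹) * a = a * z * a⁻¹ := by
          have := Subgroup.mem_centralizer_iff.mp h0.2 a⁻¹ (A.inv_mem haA)
          rw [this]; group
        rw [show z = a⁻¹ * (a * z * a⁻¹) * a by group, h2]
        exact h0
      have : a⁻¹ * b * u * (a⁻¹ * b)⁻¹ * u⁻¹ = z⁻¹ := by rw [hzdef]; group
      rw [this]
      exact CA.inv_mem hz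
    have hidx : B.relIndex A ≤ CA.relIndex W := by
      simp only [Subgroup.relIndex, Subgroup.index_eq_card]
      exact Nat.card_le_card_of_injective f hf
    have hge : meas V A ≤ Nat.card ↥B * Nat.card ↥W := by
      show Nat.card ↥A * Nat.card ↥CA ≤ _
      rw [← card_mul_relIndex_eq (show B ≤ A from inf_le_left), ← card_mul_relIndex_eq hCAW]
      calc Nat.card ↥B * B.relIndex A * Nat.card ↥CA ≤ Nat.card ↥B * CA.relIndex W * Nat.card ↥CA :=
            Nat.mul_le_mul_right _ (Nat.mul_le_mul_left _ hidx)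
        _ = Nat.card ↥B * (Nat.card ↥CA * CA.relIndex W) := by ring
    have hWB : W ≤ cv B := hlow _ huV
    have hle : Nat.card ↥B * Nat.card ↥(cv B) ≤ meas V A := hmax B inf_le_left
    refine ⟨le_antisymm hle (hge.trans (Nat.mul_le_mul_left _ (Subgroup.card_le_of_le hWB))), ?_⟩
    exact (Subgroup.eq_of_le_of_card_ge hWB (Nat.le_of_mul_le_mul_left (hle.trans hge) Nat.card_pos)).symm
  have hjoin : ∀ U₁ U₂ : Subgroup G, U₁ ≤ V → U₂ ≤ V → P U₁ → P U₂ → P (U₁ ⊔ U₂) := by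
    intro U₁ U₂ h₁ h₂ p₁ p₂
    have hsupc : ⁅U₁ ⊔ U₂, A⁆ = ⁅U₁, A⁆ ⊔ ⁅U₂, A⁆ := by
      refine le_antisymm ?_ (sup_le (Subgroup.commutator_mono le_sup_left le_rfl) (Subgroup.commutator_mono le_sup_right le_rfl))
      rw [Subgroup.commutator_le]
      intro w hw a ha
      rw [← SetLike.mem_coe, Subgroup.coe_mul_of_left_le_normalizer_right U₁ U₂ (fun g hg => Subgroup.centralizer_le_normalizer _
        (Subgroup.mem_centralizer_iff.mpr fun y hy => setLike_mul_comm (h₂ hy) (h₁ hg)))] at hw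
      obtain ⟨x, hx, y, hy, rfl⟩ := hw
      have hyc : ⁅y, a⁆ ∈ V := hcomm U₂ h₂ (Subgroup.commutator_mem_commutator hy ha)
      have e : ⁅x * y, a⁆ = x * ⁅y, a⁆ * x⁻¹ * ⁅x, a⁆ := by
        rw [commutatorElement_def, commutatorElement_def, commutatorElement_def]; group
      rw [e, setLike_mul_comm (h₁ hx) hyc, mul_inv_cancel_right]
      exact Subgroup.mul_mem _ (Subgroup.mem_sup_right (Subgroup.commutator_mem_commutator hy ha)) (Subgroup.mem_sup_left (Subgroup.commutator_mem_commutator hx ha))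
    set B₁ := st U₁ with hB₁
    set B₂ := st U₂ with hB₂
    set J := B₁ ⊔ B₂ with hJ
    set I := B₁ ⊓ B₂ with hI
    have hIeq : st (U₁ ⊔ U₂) = I := by
      ext g
      constructor
      · rintro ⟨hgA, hgc⟩
        exact ⟨⟨hgA, Subgroup.centralizer_le (SetLike.coe_subset_coe.mpr (le_sup_left.trans hsupc.ge)) hgc⟩, ⟨hgA, Subgroup.centralizer_le (SetLike.coe_subset_coe.mpr (le_sup_right.trans hsupc.ge)) hgc⟩⟩
      · rintro ⟨⟨hgA, hg1⟩, -, hg2⟩
        refine ⟨hgA, ?_⟩
        rw [hsupc]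
        have : ⁅U₁, A⁆ ⊔ ⁅U₂, A⁆ ≤ Subgroup.centralizer {g} := sup_le
          (fun x hx => Subgroup.mem_centralizer_singleton_iff.mpr (Subgroup.mem_centralizer_iff.mp hg1 x hx))
          (fun x hx => Subgroup.mem_centralizer_singleton_iff.mpr (Subgroup.mem_centralizer_iff.mp hg2 x hx))
        exact Subgroup.mem_centralizer_iff.mpr fun x hx => Subgroup.mem_centralizer_singleton_iff.mp (this hx)
    have hcvJ : cv B₁ ⊓ cv B₂ ≤ cv J := by
      intro x hx
      refine ⟨hx.1.1, Subgroup.mem_centralizer_iff.mpr fun g hg => Subgroup.mem_centralizer_singleton_iff.mp ?_⟩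
      exact (sup_le (fun a ha => Subgroup.mem_centralizer_singleton_iff.mpr (Subgroup.mem_centralizer_iff.mp hx.1.2 a ha))
        (fun a ha => Subgroup.mem_centralizer_singleton_iff.mpr (Subgroup.mem_centralizer_iff.mp hx.2.2 a ha)) : J ≤ Subgroup.centralizer {x}) hg
    set M := cv B₁ ⊔ cv B₂ with hM
    have hMI : M ≤ cv I := sup_le (inf_le_inf_left V (Subgroup.centralizer_le inf_le_left)) (inf_le_inf_left V (Subgroup.centralizer_le inf_le_right))
    have c1 : Nat.card ↥B₁ * Nat.card ↥B₂ ≤ Nat.card ↥J * Nat.card ↥I := card_mul_le _ _ _ le_sup_left le_sup_right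
    have c2 : Nat.card ↥(cv B₁) * Nat.card ↥(cv B₂) ≤ Nat.card ↥M * Nat.card ↥(cv J) :=
      (card_mul_le _ _ _ le_sup_left le_sup_right).trans (Nat.mul_le_mul_left _ (Subgroup.card_le_of_le hcvJ))
    have hpos : 0 < meas V A := Nat.mul_pos Nat.card_pos Nat.card_pos
    have htot : meas V A * meas V A ≤ meas V A * (Nat.card ↥I * Nat.card ↥M) := by
      calc meas V A * meas V A = (Nat.card ↥B₁ * Nat.card ↥(cv B₁)) * (Nat.card ↥B₂ * Nat.card ↥(cv B₂)) := by
            conv_lhs => arg 1; rw [← p₁.1]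
            conv_lhs => arg 2; rw [← p₂.1]
            rfl
        _ = (Nat.card ↥B₁ * Nat.card ↥B₂) * (Nat.card ↥(cv B₁) * Nat.card ↥(cv B₂)) := by ring
        _ ≤ (Nat.card ↥J * Nat.card ↥I) * (Nat.card ↥M * Nat.card ↥(cv J)) := Nat.mul_le_mul c1 c2
        _ = meas V J * (Nat.card ↥I * Nat.card ↥M) := by unfold meas; ring
        _ ≤ meas V A * (Nat.card ↥I * Nat.card ↥M) :=
          Nat.mul_le_mul_right _ (hmax J (sup_le inf_le_left inf_le_left))
    have hge := Nat.le_of_mul_le_mul_left htot hpos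
    have hle : Nat.card ↥I * Nat.card ↥(cv I) ≤ meas V A := hmax I (inf_le_left.trans inf_le_left)
    refine ⟨?_, ?_⟩
    · rw [hIeq]; exact le_antisymm hle (hge.trans (Nat.mul_le_mul_left _ (Subgroup.card_le_of_le hMI)))
    · rw [hIeq, ← Subgroup.eq_of_le_of_card_ge hMI (Nat.le_of_mul_le_mul_left (hle.trans hge) Nat.card_pos), hM, p₁.2, p₂.2, hsupc,
        sup_sup_sup_comm, sup_idem]
  suffices hall : ∀ W : Subgroup G, W ≤ V → P W from hall U hU
  haveI : Fintype G := Fintype.ofFinite G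
  intro W hW
  have key : ∀ s : Finset G, (∀ x ∈ s, x ∈ V) → P (Subgroup.closure (s : Set G)) := by
    intro s
    induction s using Finset.induction with
    | empty =>
      intro _
      rw [Finset.coe_empty, Subgroup.closure_empty, ← Subgroup.zpowers_one_eq_bot]
      exact hsingle 1 V.one_mem
    | insert x s _ ih =>
      intro hs
      rw [Finset.coe_insert, Set.insert_eq, Subgroup.closure_union, ← Subgroup.zpowers_eq_closure]
      exact hjoin _ _ (Subgroup.zpowers_le.mpr (hs x (Finset.mem_insert_self x s)))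
        ((Subgroup.closure_le V).mpr fun y hy => hs y (Finset.mem_insert_of_mem hy))
        (hsingle x (hs x (Finset.mem_insert_self x s))) (ih fun y hy => hs y (Finset.mem_insert_of_mem hy))
  have h := key (Finset.univ.filter (· ∈ W)) fun x hx => hW (Finset.mem_filter.mp hx).2
  rwa [show ((Finset.univ.filter (· ∈ W) : Finset G) : Set G) = (W : Set G) by ext; simp, Subgroup.closure_eq] at h

/-- If a `p`-group `F` contains `X ≤ F` with `X ≤ [X, F]`, then `X = 1`. -/
theorem eq_bot_of_pGroup {p : ℕ} [Fact p.Prime] {X F : Subgroup G} (hF : IsPGroup p F) (hXF : X ≤ F)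
    (h : X ≤ ⁅X, F⁆) : X = ⊥ := by
  haveI := hF.isNilpotent
  exact Solv.eq_bot_of_le_commutator hXF h

end Cfsg.Agent.Replacement
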