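import Cfsg.Agent.PLocal.Thompson
import Cfsg.Agent.Solv.Cores
import Mathlib.GroupTheory.Commutator.Basic

/-! The stable normal closure `W(S)`: membership in its defining family, invariance, and the absence of
nontrivial quadratic action on it. -/

set_option autoImplicit false

open scoped commutatorElement

namespace Cfsg.Agent.PLocal

universe u

theorem stableNormalClosure_le_omegaCenterThompson (p : ℕ) (S : Type u) [Group S] [Finite S] :
    stableNormalClosure p S ≤ omegaCenterThompson p S :=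
  sInf_le ⟨omegaOne_center_le_omegaCenterThompson p S,
    fun _H _ _τ hτ => omegaCenterThompson_map_normal hτ.1 hτ.2.2.2.2.1⟩

theorem stableNormalClosure_mem (p : ℕ) (S : Type u) [Group S] [Finite S] :
    omegaOne p (Subgroup.center S) ≤ stableNormalClosure p S ∧
      ∀ (H : Type u) [Group H] (τ : S →* H), IsStableEmbedding p τ →
        ((stableNormalClosure p S).map τ).Normal := by
  refine ⟨le_sInf fun M hM => hM.1, fun H _ τ hτ => ⟨?_⟩⟩
  rintro _ ⟨w, hw, rfl⟩ g
  have htop := (omegaCenterThompson_map_normal (p := p) hτ.1 hτ.2.2.2.2.1).conj_mem (τ w)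
    (Subgroup.mem_map_of_mem _ (stableNormalClosure_le_omegaCenterThompson p S hw)) g
  obtain ⟨v, _, hve⟩ := htop
  refine ⟨v, ?_, hve⟩
  rw [SetLike.mem_coe, stableNormalClosure, Subgroup.mem_sInf]
  intro M hM
  obtain ⟨m, hm, hme⟩ := (hM.2 H τ hτ).conj_mem (τ w)
    (Subgroup.mem_map_of_mem _ ((Subgroup.mem_sInf.mp hw) M hM)) g
  rwa [hτ.1 (hve.trans hme.symm)]

theorem isStableEmbedding_comp {p : ℕ} {S T H : Type u} [Group S] [Group T] [Group H] (e : S ≃* T)
    {τ : T →* H} (hτ : IsStableEmbedding p τ) : IsStableEmbedding p (τ.comp e.toMonoidHom) := by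
  obtain ⟨h1, h2, ⟨P, h3⟩, h4, h5, h6⟩ := hτ
  refine ⟨h1.comp e.injective, h2, ⟨P, ?_⟩, h4, ?_, fun V _ hV => h6 V ?_⟩
  · rw [h3, MonoidHom.range_comp, MonoidHom.range_eq_top.mpr (show Function.Surjective e.toMonoidHom from e.surjective), ← MonoidHom.range_eq_map]
  · rw [← Subgroup.map_map, map_thompsonSubgroup]
    exact h5
  · rw [← Subgroup.map_map, map_omegaCenterThompson] at hV
    exact hV

theorem map_stableNormalClosure {p : ℕ} {S T : Type u} [Group S] [Group T] [Finite S] [Finite T]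
    (e : S ≃* T) : (stableNormalClosure p S).map e.toMonoidHom = stableNormalClosure p T := by
  have key : ∀ {A B : Type u} [Group A] [Group B] [Finite B] (f : A ≃* B),
      stableNormalClosure p A ≤ (stableNormalClosure p B).map f.symm.toMonoidHom := by
    intro A B _ _ _ f
    refine sInf_le ⟨?_, fun H _ τ hτ => ?_⟩
    · rw [← map_center f.symm, omegaOne_map f.symm.injective]
      exact Subgroup.map_mono (stableNormalClosure_mem p B).1
    · rw [Subgroup.map_map]
      exact (stableNormalClosure_mem p B).2 H _ (isStableEmbedding_comp f.symm hτ)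
  refine le_antisymm ?_ ?_
  · refine (Subgroup.map_mono (key e)).trans ?_
    rw [Subgroup.map_map]
    simp
  · have := key e.symm
    simpa using this

section Quadratic

variable {H : Type*} [Group H]

/-- Two elements with the same action on the normal subgroup `V` give the same commutators with subgroups of `V`. -/
theorem commutator_zpowers_le {V V' : Subgroup H} [V.Normal] (hV' : V' ≤ V) {g g' : H}
    (hgg : (QuotientGroup.mk g : H ⧸ Subgroup.centralizer (V : Set H)) = QuotientGroup.mk g') :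
    ⁅V', Subgroup.zpowers g⁆ ≤ ⁅V', Subgroup.zpowers g'⁆ := by
  rw [Subgroup.commutator_le]
  intro v hv _ ⟨i, hi⟩
  subst hi
  have h1 : (QuotientGroup.mk (g ^ i) : H ⧸ Subgroup.centralizer (V : Set H)) = QuotientGroup.mk (g' ^ i) := by
    rw [← QuotientGroup.mk'_apply, ← QuotientGroup.mk'_apply, map_zpow, map_zpow]
    simp only [QuotientGroup.mk'_apply]
    rw [hgg]
  have hc : (g' ^ i)⁻¹ * g ^ i ∈ Subgroup.centralizer (V : Set H) := QuotientGroup.eq.mp h1.symm
  have hcv : v⁻¹ * ((g' ^ i)⁻¹ * g ^ i) = ((g' ^ i)⁻¹ * g ^ i) * v⁻¹ :=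
    Subgroup.mem_centralizer_iff.mp hc v⁻¹ (V.inv_mem (hV' hv))
  have e : ⁅v, g ^ i⁆ = ⁅v, g' ^ i⁆ := by
    rw [commutatorElement_def, commutatorElement_def]
    calc v * g ^ i * v⁻¹ * (g ^ i)⁻¹
        = v * g' ^ i * (((g' ^ i)⁻¹ * g ^ i) * v⁻¹) * (g ^ i)⁻¹ := by group
      _ = v * g' ^ i * (v⁻¹ * ((g' ^ i)⁻¹ * g ^ i)) * (g ^ i)⁻¹ := by rw [hcv]
      _ = v * g' ^ i * v⁻¹ * (g' ^ i)⁻¹ := by group
  rw [e]
  exact Subgroup.commutator_mem_commutator hv (Subgroup.zpow_mem_zpowers g' i)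

theorem quadratic_congr {V : Subgroup H} [V.Normal] {g g' : H}
    (hgg : (QuotientGroup.mk g : H ⧸ Subgroup.centralizer (V : Set H)) = QuotientGroup.mk g')
    (h : ⁅⁅V, Subgroup.zpowers g'⁆, Subgroup.zpowers g'⁆ = ⊥) :
    ⁅⁅V, Subgroup.zpowers g⁆, Subgroup.zpowers g⁆ = ⊥ := by
  rw [← le_bot_iff, ← h]
  exact (commutator_zpowers_le (V := V) (Subgroup.commutator_le_left _ _) hgg).trans
    (Subgroup.commutator_mono (commutator_zpowers_le le_rfl hgg) le_rfl)

theorem quadratic_conj {V : Subgroup H} [hV : V.Normal] (h : H) {g : H}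
    (hq : ⁅⁅V, Subgroup.zpowers g⁆, Subgroup.zpowers g⁆ = ⊥) :
    ⁅⁅V, Subgroup.zpowers (h * g * h⁻¹)⁆, Subgroup.zpowers (h * g * h⁻¹)⁆ = ⊥ := by
  have hz : Subgroup.zpowers (h * g * h⁻¹) = (Subgroup.zpowers g).map (MulAut.conj h).toMonoidHom := by
    rw [MonoidHom.map_zpowers]; rfl
  have hVc : V.map (MulAut.conj h).toMonoidHom = V := by
    ext y
    constructor
    · rintro ⟨z, hz, rfl⟩
      exact hV.conj_mem z hz h
    · intro hy
      exact ⟨h⁻¹ * y * h, by simpa using hV.conj_mem y hy h⁻¹, by simp [mul_assoc]⟩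
  rw [hz]
  conv_lhs => rw [← hVc]
  rw [← Subgroup.map_commutator, ← Subgroup.map_commutator, hq, Subgroup.map_bot]

theorem map_quadratic {S : Type*} [Group S] {f : S →* H} (hf : Function.Injective f) (W : Subgroup S) (y : S) :
    ⁅⁅W.map f, Subgroup.zpowers (f y)⁆, Subgroup.zpowers (f y)⁆ = ⊥ ↔
      ⁅⁅W, Subgroup.zpowers y⁆, Subgroup.zpowers y⁆ = ⊥ := by
  rw [← MonoidHom.map_zpowers, ← Subgroup.map_commutator, ← Subgroup.map_commutator,
    Subgroup.map_eq_bot_iff_of_injective _ hf]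

end Quadratic

/-- No element acts quadratically and nontrivially on `W(S)`. -/
theorem quadratic_imp_central {S : Type u} [Group S] [Finite S] {p : ℕ} [Fact p.Prime] (_hS : IsPGroup p S) (x : S)
    (hq : ⁅⁅stableNormalClosure p S, Subgroup.zpowers x⁆, Subgroup.zpowers x⁆ = ⊥) :
    ⁅stableNormalClosure p S, Subgroup.zpowers x⁆ = ⊥ := by
  set W := stableNormalClosure p S with hWdef
  obtain ⟨hW1, hW2⟩ := stableNormalClosure_mem p S
  let T : Set S := {y | ⁅⁅W, Subgroup.zpowers y⁆, Subgroup.zpowers y⁆ = ⊥}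
  have hU : W ≤ W ⊓ Subgroup.centralizer T := by
    refine sInf_le ⟨le_inf hW1 fun z hz => Subgroup.mem_centralizer_iff.mpr fun y _ =>
      Subgroup.mem_center_iff.mp (omegaOne_le _ hz) y, fun H _ τ hτ => ⟨?_⟩⟩
    haveI : Finite H := hτ.2.1
    haveI hVn : (W.map τ).Normal := hW2 H τ hτ
    obtain ⟨P, hP⟩ := hτ.2.2.1
    have hstab := hτ.2.2.2.2.2 (W.map τ)
      (Subgroup.map_mono (stableNormalClosure_le_omegaCenterThompson p S))
    rintro _ ⟨w, ⟨hwW, hwC⟩, rfl⟩ h
    obtain ⟨w', hw', hwe⟩ := hVn.conj_mem (τ w) (Subgroup.mem_map_of_mem _ hwW) h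
    refine ⟨w', ⟨hw', Subgroup.mem_centralizer_iff.mpr fun y hy => hτ.1 ?_⟩, hwe⟩
    have hy' : ⁅⁅W.map τ, Subgroup.zpowers (h⁻¹ * τ y * h⁻¹⁻¹)⁆, Subgroup.zpowers (h⁻¹ * τ y * h⁻¹⁻¹)⁆ = ⊥ :=
      quadratic_conj h⁻¹ ((map_quadratic hτ.1 W y).mpr hy)
    rw [inv_inv] at hy'
    have hmem := hstab _ hy'
    set q : H →* H ⧸ Subgroup.centralizer ((W.map τ : Subgroup H) : Set H) := QuotientGroup.mk' _
    have hle : pCore p (H ⧸ Subgroup.centralizer ((W.map τ : Subgroup H) : Set H)) ≤ (P : Subgroup H).map q :=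
      Solv.pCore_le_sylow (P.mapSurjective (f := q) (QuotientGroup.mk'_surjective _))
    obtain ⟨r, hr, hre⟩ := hle hmem
    rw [SetLike.mem_coe, hP] at hr
    obtain ⟨s, rfl⟩ := hr
    have hsT : ⁅⁅W, Subgroup.zpowers s⁆, Subgroup.zpowers s⁆ = ⊥ :=
      (map_quadratic hτ.1 W s).mp (quadratic_congr hre hy')
    have hws : τ s * τ w = τ w * τ s := by
      rw [← map_mul, ← map_mul, Subgroup.mem_centralizer_iff.mp hwC s hsT]
    have hc : (τ s)⁻¹ * (h⁻¹ * τ y * h) ∈ Subgroup.centralizer ((W.map τ : Subgroup H) : Set H) :=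
      QuotientGroup.eq.mp hre
    have hcw := Subgroup.mem_centralizer_iff.mp hc (τ w) (Subgroup.mem_map_of_mem _ hwW)
    have h2 : (h⁻¹ * τ y * h) * τ w = τ w * (h⁻¹ * τ y * h) :=
      calc (h⁻¹ * τ y * h) * τ w = τ s * (((τ s)⁻¹ * (h⁻¹ * τ y * h)) * τ w) := by group
        _ = τ s * (τ w * ((τ s)⁻¹ * (h⁻¹ * τ y * h))) := by rw [hcw]
        _ = (τ s * τ w) * ((τ s)⁻¹ * (h⁻¹ * τ y * h)) := by group
        _ = τ w * (h⁻¹ * τ y * h) := by rw [hws]; group
    rw [map_mul, map_mul, hwe]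
    calc τ y * (h * τ w * h⁻¹) = h * ((h⁻¹ * τ y * h) * τ w) * h⁻¹ := by group
      _ = h * (τ w * (h⁻¹ * τ y * h)) * h⁻¹ := by rw [h2]
      _ = h * τ w * h⁻¹ * τ y := by group
  rw [Subgroup.commutator_eq_bot_iff_le_centralizer]
  intro w hw
  refine Subgroup.mem_centralizer_iff.mpr fun z hz => ?_
  obtain ⟨i, rfl⟩ := hz
  have hxw : Commute x w := Subgroup.mem_centralizer_iff.mp (hU hw).2 x hq
  exact hxw.zpow_left i

end Cfsg.Agent.PLocal
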